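import Cfsg.Agent.SignedClasses.Key
import Cfsg.Agent.NilType.Classes

/-!
Unipotent classes of symplectic groups in odd characteristic: signed partitions.
-/

set_option autoImplicit false

namespace CfsgLib.SignedClasses

open Polynomial Matrix CfsgLib.GLClassCount CfsgLib.GUClassCount
open scoped Classical

section layerCongr

variable {F : Type*} [Field F] {ι : Type*} [Fintype ι] [DecidableEq ι] {g G : Matrix ι ι F}
  {m : ℕ} {p : Fin m → F[X]} {e : Fin m → ℕ} {b : Fin m → ι → F}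

/-- Congruence by the centraliser changes a layer determinant by a square. -/
theorem layer_congr (hb : IsFrame g p e b) {δ : F} (hp : ∀ i, p i = X - C δ) (he : ∀ i, e i ≠ 0)
    (hG : IsUnit G.det) (hg : gᵀ * G * g = G) (hδ : δ * δ = 1) {A : Matrix ι ι F} (hA : A * g = g * A) (j : ℕ) :
    ∃ r, (layer g (Aᵀ * G * A) p e b δ j).det = (layer g G p e b δ j).det * r ^ 2 := by
  choose u hu using fun i => hb.span (A *ᵥ b i)
  obtain ⟨U, hU⟩ : ∃ U : Matrix {i : Fin m // (p i, e i) = (X - C δ, j)} {i : Fin m // (p i, e i) = (X - C δ, j)} F,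
      U = Matrix.of fun l i => (u i.1 l.1).eval δ := ⟨_, rfl⟩
  refine ⟨U.det, ?_⟩
  suffices h : layer g (Aᵀ * G * A) p e b δ j = Uᵀ * layer g G p e b δ j * U by
    rw [h, Matrix.det_mul, Matrix.det_mul, Matrix.det_transpose]; ring
  have hp' : ∀ i, Irreducible (p i) ∧ (p i).Monic := fun i => by
    rw [hp i]; exact ⟨irreducible_X_sub_C δ, monic_X_sub_C δ⟩
  ext a i
  obtain ⟨-, hij⟩ := Prod.mk.inj i.2
  obtain ⟨-, haj⟩ := Prod.mk.inj a.2
  have hj : 0 < j := Nat.pos_of_ne_zero (hij ▸ he i.1)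
  obtain ⟨w, hw⟩ : ∃ w, w = A *ᵥ (aeval g ((X - C δ) ^ (j - 1)) *ᵥ b i.1) := ⟨_, rfl⟩
  have hgw : g *ᵥ w = δ • w := by
    have hz : g *ᵥ (aeval g ((X - C δ) ^ (j - 1)) *ᵥ b i.1) = δ • (aeval g ((X - C δ) ^ (j - 1)) *ᵥ b i.1) :=
      eigen_of_pi (by
        rw [Matrix.mulVec_mulVec, ← map_mul, ← pow_succ', Nat.sub_add_cancel hj]
        exact hb.kill i.1 (by rw [hp, hij]))
    rw [hw, Matrix.mulVec_mulVec, ← hA, ← Matrix.mulVec_mulVec, hz, Matrix.mulVec_smul]
  have hBU : ∀ l : {l : Fin m // (p l, e l) = (X - C δ, j)}, b l ⬝ᵥ (G *ᵥ w) = (layer g G p e b δ j * U) l i := fun l => by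
    rw [hw, layer_pairing hb hp' hG hg hδ hA j l i (hu i.1), hU]
    rfl
  have hout : ∀ l : Fin m, e l ≠ j → (u a.1 l).eval δ * b l ⬝ᵥ (G *ᵥ w) = 0 := fun l hl => by
    rcases lt_or_gt_of_ne hl with h | h
    · rw [hw, Matrix.mulVec_mulVec (b i.1), commute_aeval hA, ← Matrix.mulVec_mulVec]
      rw [form_zero hG hg hδ (hb.kill l (by rw [hp]; exact pow_dvd_pow _ (by omega))) (A *ᵥ b i.1), mul_zero]
    · have h0 : com g b (fun l => (X - C δ) ^ j * u a.1 l) = 0 := by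
        rw [com_mul, ← hu, Matrix.mulVec_mulVec, ← commute_aeval hA, ← Matrix.mulVec_mulVec,
          hb.kill a.1 (by rw [hp, haj]), Matrix.mulVec_zero]
      have h1 := (hb.rel _).mp h0 l
      rw [hp, show e l = j + (e l - j) by omega, pow_add] at h1
      have h2 : X - C δ ∣ u a.1 l :=
        (dvd_pow_self _ (show e l - j ≠ 0 by omega)).trans ((mul_dvd_mul_iff_left (pow_ne_zero _ (X_sub_C_ne_zero δ))).mp h1)
      rw [show (u a.1 l).eval δ = 0 from dvd_iff_isRoot.mp h2, zero_mul]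
  have hl : layer g (Aᵀ * G * A) p e b δ j a i = ∑ l, (u a.1 l).eval δ * b l ⬝ᵥ (G *ᵥ w) := by
    show b a.1 ⬝ᵥ ((Aᵀ * G * A) *ᵥ (aeval g ((X - C δ) ^ (j - 1)) *ᵥ b i.1)) = _
    rw [← Matrix.mulVec_mulVec, ← hw, ← Matrix.mulVec_mulVec, Matrix.dotProduct_mulVec, Matrix.vecMul_transpose,
      hu a.1, com, sum_dotProduct]
    exact Finset.sum_congr rfl fun l _ => form_eigen hG hg hδ hgw _ _
  rw [hl, Matrix.mul_assoc, Matrix.mul_apply]
  rw [← Finset.sum_filter_of_ne (p := fun l => (p l, e l) = (X - C δ, j)) fun l _ hne =>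
    Prod.ext (hp l) (by_contra fun h => hne (hout l h))]
  rw [Finset.sum_subtype _ (p := fun l => (p l, e l) = (X - C δ, j)) (fun l => by simp)]
  refine Finset.sum_congr rfl fun l _ => ?_
  rw [hBU, Matrix.transpose_apply, hU]
  rfl

end layerCongr

variable {F : Type*} [Field F] [Fintype F] {N : ℕ}

/-- Frame of a unipotent matrix of type `μ`. -/
theorem exists_uni_frame (g : GL (Fin N) F) {μ : Nat.Partition N} (hμ : CfsgLib.NilType.UniType g μ) :
    ∃ (m : ℕ) (e : Fin m → ℕ) (b : Fin m → Fin N → F),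
      IsFrame g.1 (fun _ => X - C (1 : F)) e b ∧ (∀ i, e i ≠ 0) ∧ μ.parts = Finset.univ.val.map e := by
  obtain ⟨m, p, e, ⟨hp, -, -, hsum⟩, hT⟩ := exists_data g
  obtain ⟨b, hb⟩ := exists_frame g.1 hT
  obtain ⟨k, hk⟩ := hμ.1
  have haev : ∀ l, aeval g.1 ((X - C (1 : F)) ^ l) = (g.1 - 1) ^ l := fun l => by
    rw [map_pow, map_sub, aeval_X, map_one C, map_one]
  have hp1 : p = fun _ => X - C (1 : F) := funext fun i => by
    have h1 : p i ^ e i ∣ (X - C (1 : F)) ^ k := by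
      have h0 : com g.1 b (Pi.single i ((X - C (1 : F)) ^ k)) = 0 := by
        rw [com_single, haev, hk, Matrix.zero_mulVec]
      have := (hb.rel _).mp h0 i
      rwa [Pi.single_eq_same] at this
    exact eq_of_monic_of_associated (hp i).2.1 (monic_X_sub_C 1) ((hp i).1.associated_of_dvd (irreducible_X_sub_C 1)
      ((hp i).1.prime.dvd_of_dvd_pow ((dvd_pow_self _ (hp i).2.2).trans h1)))
  subst hp1
  have hsum' : ∑ i, e i = N := by simpa only [natDegree_X_sub_C, mul_one] using hsum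
  let ν : Nat.Partition N := ⟨Finset.univ.val.map e, fun {a} ha => by
      obtain ⟨i, -, rfl⟩ := Multiset.mem_map.mp ha; exact Nat.pos_of_ne_zero (hp i).2.2, by
      simpa [Finset.sum] using hsum'⟩
  refine ⟨m, e, b, hb, fun i => (hp i).2.2, congrArg Nat.Partition.parts (hμ.2.unique (ν := ν) fun l => ?_)⟩
  have h1 := card_torsion hp hT (irreducible_X_sub_C 1) (monic_X_sub_C (1 : F)) l
  rw [natDegree_X_sub_C, one_mul, Finset.filter_true_of_mem (fun _ _ => rfl), card_torsion_matrix, haev,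
    show {v : Fin N → F // (g.1 - 1) ^ l *ᵥ v = 0} = ↥(LinearMap.ker (Matrix.mulVecLin ((g.1 - 1) ^ l))) from rfl,
    Module.natCard_eq_pow_finrank (K := F), Nat.card_eq_fintype_card] at h1
  have h2 := Nat.pow_right_injective Fintype.one_lt_card h1
  have h3 := LinearMap.finrank_range_add_finrank_ker (Matrix.mulVecLin ((g.1 - 1) ^ l))
  rw [Module.finrank_pi, Fintype.card_fin, h2] at h3
  show Module.finrank F (LinearMap.range (Matrix.mulVecLin ((g.1 - 1) ^ l))) = CfsgLib.NilType.prank ν l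
  rw [show CfsgLib.NilType.prank ν l = ∑ i, (e i - l) by simp [CfsgLib.NilType.prank, ν, Finset.sum, Function.comp_def]]
  have h4 : ∑ i, (e i - l) + ∑ i, min l (e i) = N := by
    rw [← Finset.sum_add_distrib]; exact (Finset.sum_congr rfl fun i _ => by omega).trans hsum'
  omega

/-- The parts of odd size of a unipotent symplectic matrix occur evenly often. -/
theorem even_count_odd (h2 : (2 : F) ≠ 0) {G : Matrix (Fin N) (Fin N) F} (hG : IsUnit G.det) (hs : Gᵀ = (-1 : F) • G)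
    (g : isoGroup G) {μ : Nat.Partition N} (hμ : CfsgLib.NilType.UniType g.1 μ) {j : ℕ} (hj : Odd j) :
    Even (μ.parts.count j) := by
  obtain ⟨m, e, b, hb, he, hparts⟩ := exists_uni_frame g.1 hμ
  have hp : ∀ i : Fin m, Irreducible ((fun _ => X - C (1 : F)) i) ∧ ((fun _ => X - C (1 : F)) i).Monic :=
    fun _ => ⟨irreducible_X_sub_C 1, monic_X_sub_C 1⟩
  have hdet := layer_det hb hp he hG g.2 (one_mul 1) j
  have ht := congrArg Matrix.det (layer_transpose hb he hG g.2 (one_mul 1) hs j)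
  have hj' : Even (j - 1) := by obtain ⟨k, rfl⟩ := hj; exact ⟨k, by omega⟩
  rw [hj'.neg_one_pow, mul_one, Matrix.det_transpose, Matrix.det_smul] at ht
  have hcard : μ.parts.count j = Fintype.card {i : Fin m // ((fun _ => X - C (1 : F)) i, e i) = (X - C 1, j)} := by
    rw [hparts, Multiset.count_map, Fintype.card_subtype, ← Finset.filter_val, ← Finset.card_def]
    exact congrArg _ (Finset.filter_congr fun i _ => by simp [eq_comm])
  rw [hcard]
  refine (Nat.even_or_odd _).resolve_right fun h => ?_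
  rw [h.neg_one_pow, neg_one_mul] at ht
  exact hdet.ne_zero ((mul_eq_zero.mp (show (2 : F) * (layer g.1.1 G (fun _ => X - C (1 : F)) e b 1 j).det = 0 by
    linear_combination ht)).resolve_left h2)

/-- The classes of a given type correspond to the signs of the even part sizes. -/
theorem card_type_classes (h2 : (2 : F) ≠ 0) {G : Matrix (Fin N) (Fin N) F} (hG : IsUnit G.det)
    (hs : Gᵀ = (-1 : F) • G) (g₀ : isoGroup G) {μ : Nat.Partition N} (hμ : CfsgLib.NilType.UniType g₀.1 μ) :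
    Nat.card {C : ConjClasses (isoGroup G) // ∃ g : isoGroup G, ConjClasses.mk g = C ∧ CfsgLib.NilType.UniType g.1 μ} =
      2 ^ (μ.parts.toFinset.filter (fun j : ℕ => Even j)).card := by
  obtain ⟨m, e, b, hb, he, hparts⟩ := exists_uni_frame g₀.1 hμ
  obtain ⟨p, hp⟩ : ∃ p : Fin m → F[X], p = fun _ => X - C (1 : F) := ⟨_, rfl⟩
  rw [← hp] at hb
  have hp' : ∀ i, Irreducible (p i) ∧ (p i).Monic := fun i => by rw [hp]; exact ⟨irreducible_X_sub_C 1, monic_X_sub_C 1⟩
  have hε : (-1 : F) * -1 = 1 := by ring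
  obtain ⟨S, hS⟩ : ∃ S, S = μ.parts.toFinset.filter (fun j : ℕ => Even j) := ⟨_, rfl⟩
  rw [← hS]
  have hmemS : ∀ j, j ∈ S ↔ Even j ∧ Nonempty {i : Fin m // (p i, e i) = (X - C (1 : F), j)} := fun j => by
    rw [hS, Finset.mem_filter, Multiset.mem_toFinset, hparts, and_comm, Multiset.mem_map]
    refine and_congr_right fun _ => ⟨fun ⟨i, _, hi⟩ => ⟨⟨i, by rw [hp, hi]⟩⟩, fun ⟨⟨i, hi⟩⟩ => ⟨i, Finset.mem_univ_val i, (Prod.mk.inj hi).2⟩⟩
  have hsign : ∀ j ∈ S, (-1 : F) * (-1) ^ (j - 1) = 1 := fun j hj => by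
    obtain ⟨hev, ⟨⟨i, hi⟩⟩⟩ := (hmemS j).mp hj
    rw [← pow_succ', Nat.sub_add_cancel (Nat.pos_of_ne_zero ((Prod.mk.inj hi).2 ▸ he i)), hev.neg_one_pow]
  obtain ⟨ν, hν⟩ := FiniteField.exists_nonsquare (F := F) fun hc => h2 (by
    exact_mod_cast (ringChar.spec F 2).mpr (dvd_of_eq hc))
  have hν0 : ν ≠ 0 := fun e => hν (e ▸ IsSquare.zero)
  have hforms : ∀ f : ℕ → Bool, ∀ T ⊆ S, ∃ H : Matrix (Fin N) (Fin N) F, IsUnit H.det ∧ Hᵀ = (-1 : F) • H ∧
      g₀.1.1ᵀ * H * g₀.1.1 = H ∧ ∀ j ∈ T, (IsSquare (layer g₀.1.1 H p e b 1 j).det ↔ f j = true) := by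
    intro f T
    induction T using Finset.induction_on with
    | empty => exact fun _ => ⟨G, hG, hs, g₀.2, by simp⟩
    | insert a T haT ih =>
      intro hsub
      obtain ⟨haS, hTS⟩ := Finset.insert_subset_iff.mp hsub
      obtain ⟨H, hH, hHs, hHg, hHb⟩ := ih hTS
      by_cases hok : IsSquare (layer g₀.1.1 H p e b 1 a).det ↔ f a = true
      · exact ⟨H, hH, hHs, hHg, fun j hj => (Finset.mem_insert.mp hj).elim (fun h => h ▸ hok) (hHb j)⟩
      obtain ⟨H', hH', hH's, hH'g, -, hl⟩ := exists_flip h2 hb hp' he hH hHg hε hHs (one_mul 1) (hsign a haS)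
        ((hmemS a).mp haS).2 hν0
      refine ⟨H', hH', hH's, hH'g, fun j hj => ?_⟩
      obtain ⟨hl1, hl2⟩ := hl 1 (one_mul 1) j
      rcases Finset.mem_insert.mp hj with rfl | hjT
      · rw [hl1 ⟨rfl, rfl⟩, isSquare_mul_nonsquare (layer_det hb hp' he hH hHg (one_mul 1) j).ne_zero hν]
        tauto
      · rw [hl2 fun h => haT (h.2 ▸ hjT)]; exact hHb j hjT
  choose H hHu hHs hHg hHb using fun f : ↥S → Bool =>
    hforms (fun j => if hj : j ∈ S then f ⟨j, hj⟩ else true) S (Finset.Subset.refl S)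
  choose c hcu hc using fun f => congr_alt h2 (B := G) (B' := H f) (by rw [hs, neg_one_smul]) hG
    (by rw [hHs, neg_one_smul]) (hHu f)
  let u : (↥S → Bool) → GL (Fin N) F := fun f => ((Matrix.isUnit_iff_isUnit_det (c f)).mpr (hcu f)).unit
  have hu : ∀ f, (u f).1 = c f := fun f => rfl
  have hmem : ∀ f, u f * g₀.1 * (u f)⁻¹ ∈ isoGroup G := fun f => by
    rw [mem_isoGroup]
    show ((u f).1 * g₀.1.1 * (u f)⁻¹.1)ᵀ * G * ((u f).1 * g₀.1.1 * (u f)⁻¹.1) = G
    calc ((u f).1 * g₀.1.1 * (u f)⁻¹.1)ᵀ * G * ((u f).1 * g₀.1.1 * (u f)⁻¹.1)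
        = (u f)⁻¹.1ᵀ * (g₀.1.1ᵀ * ((u f).1ᵀ * G * (u f).1) * g₀.1.1) * (u f)⁻¹.1 := by
          simp only [Matrix.transpose_mul, Matrix.mul_assoc]
      _ = ((u f).1 * (u f)⁻¹.1)ᵀ * G * ((u f).1 * (u f)⁻¹.1) := by
          rw [hu, hc, hHg, ← hc]; simp only [Matrix.transpose_mul, Matrix.mul_assoc, hu]
      _ = G := by rw [Units.mul_inv, Matrix.transpose_one, Matrix.one_mul, Matrix.mul_one]
  have htype : ∀ f, CfsgLib.NilType.UniType (u f * g₀.1 * (u f)⁻¹) μ := fun f => by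
    have hconj : IsConj g₀.1 (u f * g₀.1 * (u f)⁻¹) := isConj_iff.mpr ⟨u f, rfl⟩
    refine ⟨?_, fun l => ?_⟩
    · obtain ⟨k, hk⟩ := hμ.1
      obtain ⟨w, hw⟩ := CfsgLib.NilType.isConj_sub_one.mp hconj
      refine ⟨k, ?_⟩
      have h' := (SemiconjBy.pow_right hw k).eq
      rw [hk, mul_zero] at h'
      exact (w.isUnit.mul_left_eq_zero).mp h'.symm
    · exact ((CfsgLib.NilType.rank_of_isConj (CfsgLib.NilType.isConj_sub_one.mp hconj.symm) l).trans (hμ.2 l))
  let Ψ : (↥S → Bool) → {C : ConjClasses (isoGroup G) // ∃ g : isoGroup G, ConjClasses.mk g = C ∧ CfsgLib.NilType.UniType g.1 μ} :=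
    fun f => ⟨ConjClasses.mk ⟨_, hmem f⟩, ⟨_, hmem f⟩, rfl, htype f⟩
  have hΨ : Function.Bijective Ψ := by
    constructor
    · intro f f' h
      obtain ⟨⟨w, hwG⟩, hw⟩ := isConj_iff.mp (ConjClasses.mk_eq_mk_iff_isConj.mp (congrArg Subtype.val h))
      have hw' : w * (u f * g₀.1 * (u f)⁻¹) * w⁻¹ = u f' * g₀.1 * (u f')⁻¹ := congrArg Subtype.val hw
      obtain ⟨Q, hQ⟩ : ∃ Q : GL (Fin N) F, Q = (u f')⁻¹ * w * u f := ⟨_, rfl⟩
      have hQg : Q * g₀.1 = g₀.1 * Q := by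
        have h1 := congrArg (fun x => (u f')⁻¹ * x * (w * u f)) hw'
        simpa [hQ, mul_assoc] using h1
      have hQf : Q.1ᵀ * H f' * Q.1 = H f := by
        have h1 : (u f').1 * Q.1 = w.1 * (u f).1 := by
          rw [← Units.val_mul, hQ, ← Units.val_mul, mul_assoc (u f')⁻¹, mul_inv_cancel_left]
        calc Q.1ᵀ * H f' * Q.1 = ((u f').1 * Q.1)ᵀ * G * ((u f').1 * Q.1) := by
              rw [← hc f', ← hu]; simp only [Matrix.transpose_mul, Matrix.mul_assoc]
          _ = (u f).1ᵀ * (w.1ᵀ * G * w.1) * (u f).1 := by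
              rw [h1]; simp only [Matrix.transpose_mul, Matrix.mul_assoc]
          _ = H f := by rw [mem_isoGroup.mp hwG, hu, hc]
      funext j
      obtain ⟨r, hr⟩ := layer_congr hb (G := H f') (δ := 1) (fun i => by rw [hp]) he (hHu f') (hHg f') (one_mul 1)
        (congrArg Units.val hQg) j.1
      rw [hQf] at hr
      have h1 := hHb f j.1 j.2
      have h1' := hHb f' j.1 j.2
      simp only [dif_pos j.2, Subtype.coe_eta] at h1 h1'
      have hr0 : r ≠ 0 := fun h0 => (layer_det hb hp' he (hHu f) (hHg f) (one_mul 1) j.1).ne_zero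
        (by rw [hr, h0]; ring)
      have : IsSquare (layer g₀.1.1 (H f) p e b 1 j.1).det ↔ IsSquare (layer g₀.1.1 (H f') p e b 1 j.1).det := by
        rw [hr]
        refine ⟨fun ⟨t, ht⟩ => ⟨t / r, by field_simp; linear_combination ht⟩, fun h => h.mul (IsSquare.sq r)⟩
      exact Bool.eq_iff_iff.mpr (h1.symm.trans (this.trans h1'))
    · rintro ⟨C, g, rfl, hg⟩
      obtain ⟨t, ht⟩ := isConj_iff.mp (hμ.isConj hg)
      have hK : g₀.1.1ᵀ * (t.1ᵀ * G * t.1) * g₀.1.1 = t.1ᵀ * G * t.1 := by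
        have h1 : t.1 * g₀.1.1 = g.1.1 * t.1 := congrArg Units.val (mul_inv_eq_iff_eq_mul.mp ht)
        calc g₀.1.1ᵀ * (t.1ᵀ * G * t.1) * g₀.1.1 = (t.1 * g₀.1.1)ᵀ * G * (t.1 * g₀.1.1) := by
              simp only [Matrix.transpose_mul, Matrix.mul_assoc]
          _ = t.1ᵀ * (g.1.1ᵀ * G * g.1.1) * t.1 := by rw [h1]; simp only [Matrix.transpose_mul, Matrix.mul_assoc]
          _ = _ := by rw [mem_isoGroup.mp g.2]
      obtain ⟨K, hKdef⟩ : ∃ K, K = t.1ᵀ * G * t.1 := ⟨_, rfl⟩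
      rw [← hKdef] at hK
      have htu := (Matrix.isUnit_iff_isUnit_det _).mp t.isUnit
      have hKu : IsUnit K.det := by
        rw [hKdef, Matrix.det_mul, Matrix.det_mul, Matrix.det_transpose]; exact (htu.mul hG).mul htu
      have hKs : Kᵀ = (-1 : F) • K := by
        rw [hKdef, Matrix.transpose_mul, Matrix.transpose_mul, Matrix.transpose_transpose, hs, Matrix.smul_mul,
          Matrix.mul_smul, Matrix.mul_assoc]
      obtain ⟨f, hf⟩ : ∃ f : ↥S → Bool, f = fun j => decide (IsSquare (layer g₀.1.1 K p e b 1 j.1).det) := ⟨_, rfl⟩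
      obtain ⟨Q, hQu, hQg, hQ⟩ := congr_of_disc h2 hb hp' he hε (hHu f) hKu (hHs f) hKs (hHg f) hK fun δ hδ j hj => by
        rcases isEmpty_or_nonempty {i : Fin m // (p i, e i) = (X - Polynomial.C δ, j)} with hemp | hne
        · rw [Matrix.det_isEmpty, Matrix.det_isEmpty, mul_one]; exact IsSquare.one
        obtain ⟨i, hi⟩ := id hne
        have hδ1 : δ = 1 := by
          have := (Prod.mk.inj hi).1
          rw [hp] at this
          exact (C_injective (sub_right_injective this)).symm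
        subst hδ1
        have hj0 : 0 < j := Nat.pos_of_ne_zero ((Prod.mk.inj hi).2 ▸ he i)
        have hev : Even j := by
          rw [← pow_succ', Nat.sub_add_cancel hj0] at hj
          rcases Nat.even_or_odd j with h | h
          · exact h
          · rw [h.neg_one_pow] at hj; exact absurd (show (2 : F) = 0 by linear_combination -hj) h2
        have hjS : j ∈ S := (hmemS j).mpr ⟨hev, hne⟩
        have h1 := hHb f j hjS
        rw [dif_pos hjS] at h1
        refine isSquare_mul_of_iff (layer_det hb hp' he (hHu f) (hHg f) hδ j).ne_zero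
          (layer_det hb hp' he hKu hK hδ j).ne_zero (h1.trans ?_)
        rw [hf]; simp
      refine ⟨f, Subtype.ext (ConjClasses.mk_eq_mk_iff_isConj.mpr (isConj_iff.mpr ?_))⟩
      obtain ⟨q, hq⟩ : ∃ q : GL (Fin N) F, q.1 = Q := ⟨((Matrix.isUnit_iff_isUnit_det Q).mpr hQu).unit, rfl⟩
      have hqg : q * g₀.1 = g₀.1 * q := Units.ext (by rw [Units.val_mul, Units.val_mul, hq]; exact hQg)
      obtain ⟨w, hw⟩ : ∃ w, w = t * q⁻¹ * (u f)⁻¹ := ⟨_, rfl⟩
      have hwG : w ∈ isoGroup G := by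
        rw [mem_isoGroup, hw]
        show (t.1 * q⁻¹.1 * (u f)⁻¹.1)ᵀ * G * (t.1 * q⁻¹.1 * (u f)⁻¹.1) = G
        calc (t.1 * q⁻¹.1 * (u f)⁻¹.1)ᵀ * G * (t.1 * q⁻¹.1 * (u f)⁻¹.1)
            = (u f)⁻¹.1ᵀ * (q⁻¹.1ᵀ * (t.1ᵀ * G * t.1) * q⁻¹.1) * (u f)⁻¹.1 := by
              simp only [Matrix.transpose_mul, Matrix.mul_assoc]
          _ = (u f)⁻¹.1ᵀ * ((q.1 * q⁻¹.1)ᵀ * H f * (q.1 * q⁻¹.1)) * (u f)⁻¹.1 := by
              rw [← hKdef, ← hQ, ← hq]; simp only [Matrix.transpose_mul, Matrix.mul_assoc]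
          _ = ((u f).1 * (u f)⁻¹.1)ᵀ * G * ((u f).1 * (u f)⁻¹.1) := by
              rw [Units.mul_inv, Matrix.transpose_one, Matrix.one_mul, Matrix.mul_one, ← hc, ← hu]
              simp only [Matrix.transpose_mul, Matrix.mul_assoc]
          _ = G := by rw [Units.mul_inv, Matrix.transpose_one, Matrix.one_mul, Matrix.mul_one]
      refine ⟨⟨w, hwG⟩, Subtype.ext (mul_inv_eq_iff_eq_mul.mpr ?_)⟩
      show w * (u f * g₀.1 * (u f)⁻¹) = g.1 * w
      rw [← ht, hw]
      have hqi : q⁻¹ * g₀.1 = g₀.1 * q⁻¹ := by rw [inv_mul_eq_iff_eq_mul, ← mul_assoc, hqg, mul_inv_cancel_right]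
      simp only [mul_assoc, inv_mul_cancel_left]
      rw [← mul_assoc q⁻¹, hqi, mul_assoc]
  rw [← Nat.card_congr (Equiv.ofBijective Ψ hΨ), Nat.card_fun, Nat.card_eq_fintype_card, Nat.card_eq_fintype_card]
  simp

end CfsgLib.SignedClasses
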